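import Cfsg.Agent.H85.Pw.Nine
import Cfsg.Agent.H962.PP.FiveSL

/-!
# `E₈(9)`: products of two elements of order prime to `6` (S2465)
-/

set_option autoImplicit false

namespace Cfsg.Agent.H85.Pw

open Cfsg.Lie Cfsg.Agent.H78.Pw Cfsg.Agent.H122.Pw

universe u

variable {K : Type u} [Field K] [Finite K]

theorem pi_five_nine (hK : Nat.card K = 9) : PI 5 K 7381 := by
  have h : PI 5 K (∑ a ∈ Finset.range 5, Nat.card K ^ a) := PI.of_irr (Cfsg.Agent.H962.PP.p_five_nine hK)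
  have h9 : ∑ a ∈ Finset.range 5, Nat.card K ^ a = 7381 := by rw [hK]; decide
  rw [h9] at h
  exact h

/-- **`E₈(9)`** -/
theorem six_E8_9 (hK : Nat.card K = 9) : All 6 ↥(chevE8.group K) :=
  Nine.six_E8_9 hK (pi_five_nine hK)

end Cfsg.Agent.H85.Pw
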